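import Cfsg.Agent.H150.MF.Big

/-!
# Factorisations in `SL_n(q)`, `q ≥ 3`: classes of elements of `GL_n(q)` (helper150)

* `mf_gl` : `M₀, M₁ ∈ GL_n(F)`, `M₀` cyclic with a simple rational eigenvalue, `M₁` cyclic with full centralizer,
  `det M₀ det M₁ = det A` : `A = (g M₀ g⁻¹) (h M₁ h⁻¹)` with `g, h ∈ SL_n(F)`, for nonscalar `A`;
* `mf_gl_lu` : `L U = (g M₀ g⁻¹) (h M₀ h⁻¹)⁻¹`;
* `mf_gl_poly` : the element with a given characteristic polynomial `(X - ν) p`.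
-/

set_option autoImplicit false

namespace Cfsg.Agent.H150.MF

open Module Polynomial Cfsg.Agent.H166.Cov

universe u

variable {F : Type u} [Field F]

/-- the inclusion of `SL` in `GL` -/
abbrev inc {n : ℕ} (g : Matrix.SpecialLinearGroup (Fin n) F) : GL (Fin n) F :=
  Matrix.SpecialLinearGroup.toGL g

theorem gl_of_sims {n : ℕ} (c : GL (Fin n) F) {T : End F (Fin n → F)}
    (h : SimS (Matrix.toLin' (c : Matrix (Fin n) (Fin n) F)) T) :
    ∃ g : Matrix.SpecialLinearGroup (Fin n) F,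
      LinearMap.toMatrix' T = ((inc g * c * (inc g)⁻¹ : GL (Fin n) F) : Matrix (Fin n) (Fin n) F) := by
  obtain ⟨e, he, h⟩ := h
  have h1 : (LinearMap.toMatrix' (e : (Fin n → F) →ₗ[F] (Fin n → F))).det = 1 := by
    rw [LinearMap.det_toMatrix', he]
  have h2 : LinearMap.toMatrix' (e : (Fin n → F) →ₗ[F] (Fin n → F)) * (c : Matrix (Fin n) (Fin n) F) =
      LinearMap.toMatrix' T * LinearMap.toMatrix' (e : (Fin n → F) →ₗ[F] (Fin n → F)) := by
    apply Matrix.toLin'.injective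
    rw [Matrix.toLin'_mul, Matrix.toLin'_mul, Matrix.toLin'_toMatrix', Matrix.toLin'_toMatrix']
    exact LinearMap.ext fun x => h x
  obtain ⟨g, hg⟩ : ∃ g : Matrix.SpecialLinearGroup (Fin n) F,
      (g : Matrix (Fin n) (Fin n) F) = LinearMap.toMatrix' (e : (Fin n → F) →ₗ[F] (Fin n → F)) := ⟨⟨_, h1⟩, rfl⟩
  rw [← hg] at h2
  refine ⟨g, ?_⟩
  have h3 : ((inc g * c : GL (Fin n) F) : Matrix (Fin n) (Fin n) F) =
      LinearMap.toMatrix' T * ((inc g : GL (Fin n) F) : Matrix (Fin n) (Fin n) F) := h2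
  rw [Units.val_mul, h3, mul_assoc, ← Units.val_mul, mul_inv_cancel, Units.val_one, mul_one]

/-- **The factorisation with classes of `GL_n(F)`.** -/
theorem mf_gl [Finite F] (hq : 3 ≤ Nat.card F) {n : ℕ} (hn : 2 ≤ n) {M₀ M₁ : GL (Fin n) F}
    (h0 : NiceM (M₀ : Matrix (Fin n) (Fin n) F)) (h1 : Cls (M₁ : Matrix (Fin n) (Fin n) F)) (A : GL (Fin n) F)
    (hA : ∀ a : F, (A : Matrix (Fin n) (Fin n) F) ≠ a • (1 : Matrix (Fin n) (Fin n) F))
    (hdet : (A : Matrix (Fin n) (Fin n) F).det =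
      (M₀ : Matrix (Fin n) (Fin n) F).det * (M₁ : Matrix (Fin n) (Fin n) F).det) :
    ∃ g h : Matrix.SpecialLinearGroup (Fin n) F, A = (inc g * M₀ * (inc g)⁻¹) * (inc h * M₁ * (inc h)⁻¹) := by
  obtain ⟨ν, h0⟩ := h0
  have hf : finrank F (Fin n → F) = n := finrank_fin_fun F
  have hA0 : (A : Matrix (Fin n) (Fin n) F).det ≠ 0 := (Matrix.isUnits_det_units A).ne_zero
  obtain ⟨M, X, φ, h2, h3, h4, -, -⟩ := exists_fac3' (V := Fin n → F) hq (by rw [hf]; exact hn) (ns_toLin hA) h0 h1.1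
    (by rw [LinearMap.det_toLin']; exact hA0)
    (by rw [LinearMap.det_toLin', LinearMap.det_toLin', LinearMap.det_toLin', hdet])
  obtain ⟨g, hg⟩ := gl_of_sims M₀ ((Full.of_nice h0).sims h2)
  obtain ⟨h, hh⟩ := gl_of_sims M₁ (h1.2.sims h3)
  refine ⟨g, h, Units.ext ?_⟩
  rw [Units.val_mul, ← hg, ← hh, ← LinearMap.toMatrix'_mul, ← h4, LinearMap.toMatrix'_toLin']

theorem NiceM.cls_inv_gl {n : ℕ} {c : GL (Fin n) F} (h : NiceM (c : Matrix (Fin n) (Fin n) F)) :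
    Cls ((c⁻¹ : GL (Fin n) F) : Matrix (Fin n) (Fin n) F) := by
  obtain ⟨ν, h⟩ := h
  refine Nice.of_inv h ?_ ?_
  · rw [Module.End.mul_eq_comp, ← Matrix.toLin'_mul, ← Units.val_mul, mul_inv_cancel, Units.val_one,
      Matrix.toLin'_one]
    rfl
  · rw [Module.End.mul_eq_comp, ← Matrix.toLin'_mul, ← Units.val_mul, inv_mul_cancel, Units.val_one,
      Matrix.toLin'_one]
    rfl

/-- **lower times upper unitriangular**, a class of `GL_n(F)` -/
theorem mf_gl_lu [Finite F] (hq : 3 ≤ Nat.card F) {n : ℕ} (hn : 2 ≤ n) {M₀ : GL (Fin n) F}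
    (h0 : NiceM (M₀ : Matrix (Fin n) (Fin n) F)) {L U : Matrix.SpecialLinearGroup (Fin n) F}
    (hL : L ∈ Cfsg.Agent.H162.GaussSL.LT n F) (hU : U ∈ Cfsg.Agent.H162.GaussSL.UT n F) :
    ∃ g h : Matrix.SpecialLinearGroup (Fin n) F,
      inc (L * U) = (inc g * M₀ * (inc g)⁻¹) * (inc h * M₀ * (inc h)⁻¹)⁻¹ := by
  by_cases hc : ∃ c : F, (L * U).1 = c • (1 : Matrix (Fin n) (Fin n) F)
  · obtain ⟨c, hc⟩ := hc
    obtain ⟨rfl, rfl⟩ := Cfsg.Agent.H162.GaussSL.scalar_case (by omega) hL hU hc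
    refine ⟨1, 1, ?_⟩
    rw [mul_one, mul_inv_cancel]
    exact map_one Matrix.SpecialLinearGroup.toGL
  · push Not at hc
    obtain ⟨g, h, e⟩ := mf_gl hq hn h0 h0.cls_inv_gl (inc (L * U)) hc (by
      rw [← Matrix.det_mul, ← Units.val_mul, mul_inv_cancel, Units.val_one, Matrix.det_one]
      exact (L * U).2)
    exact ⟨g, h, by rw [e]; group⟩

/-- an element of `GL_n(F)` with a given characteristic polynomial -/
theorem exists_niceM_gl {n : ℕ} {ν : F} {p : F[X]} (hp : p.Monic) (hpd : p.natDegree + 1 = n)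
    (h0 : ((X - C ν) * p).coeff 0 ≠ 0) (hν : p.eval ν ≠ 0) :
    ∃ M₀ : GL (Fin n) F, (M₀ : Matrix (Fin n) (Fin n) F).charpoly = (X - C ν) * p ∧
      NiceM (M₀ : Matrix (Fin n) (Fin n) F) := by
  have hm : ((X - C ν) * p).Monic := (monic_X_sub_C ν).mul hp
  have hd : ((X - C ν) * p).natDegree = n := by
    rw [(monic_X_sub_C ν).natDegree_mul hp, natDegree_X_sub_C, add_comm, hpd]
  obtain ⟨T, hT, hTc⟩ := exists_coc (V := Fin n → F) hm (by rw [hd, finrank_fin_fun])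
  have hdet : (LinearMap.toMatrix' T).det ≠ 0 := by
    rw [LinearMap.det_toMatrix', det_eq_charpoly, hTc]
    exact mul_ne_zero (pow_ne_zero _ (by simp)) h0
  refine ⟨Matrix.GeneralLinearGroup.mkOfDetNeZero _ hdet, ?_, ν, ?_⟩
  · change (LinearMap.toMatrix' T).charpoly = _
    rw [← Matrix.charpoly_toLin', Matrix.toLin'_toMatrix', hTc]
  · change Nice ν (Matrix.toLin' (LinearMap.toMatrix' T))
    rw [Matrix.toLin'_toMatrix']
    exact ⟨hT, p, hTc, hν⟩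

/-- **the factorisation with a given characteristic polynomial**, classes of `GL_n(F)` -/
theorem mf_gl_poly [Finite F] (hq : 3 ≤ Nat.card F) {n : ℕ} (hn : 2 ≤ n) {ν : F} {p : F[X]} (hp : p.Monic)
    (hpd : p.natDegree + 1 = n) (h0 : ((X - C ν) * p).coeff 0 ≠ 0) (hν : p.eval ν ≠ 0) :
    ∃ M₀ : GL (Fin n) F, (M₀ : Matrix (Fin n) (Fin n) F).charpoly = (X - C ν) * p ∧
      NiceM (M₀ : Matrix (Fin n) (Fin n) F) ∧
      ∀ L ∈ Cfsg.Agent.H162.GaussSL.LT n F, ∀ U ∈ Cfsg.Agent.H162.GaussSL.UT n F,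
        ∃ g h : Matrix.SpecialLinearGroup (Fin n) F,
          inc (L * U) = (inc g * M₀ * (inc g)⁻¹) * (inc h * M₀ * (inc h)⁻¹)⁻¹ := by
  obtain ⟨M₀, h1, h2⟩ := exists_niceM_gl hp hpd h0 hν
  exact ⟨M₀, h1, h2, fun L hL U hU => mf_gl_lu hq hn h2 hL hU⟩

end Cfsg.Agent.H150.MF
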